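import Mathlib
import Cfsg.Agent.Lib.Helper56.TC
import Cfsg.Agent.Lib.Helper56.He2058.D
set_option autoImplicit false
set_option maxRecDepth 1000000

namespace Cfsg.Agent.Lib.Helper56.He2058

open Cfsg.Agent.Lib.Helper56.TC Cfsg.Agent.Lib.Helper56.TC.Tabs

theorem cN_0 : allRange (fun x => forceN T.chkName x) 0 339 = true := by decide +kernel
theorem cN_339 : allRange (fun x => forceN T.chkName x) 339 342 = true := by decide +kernel
theorem cN_681 : allRange (fun x => forceN T.chkName x) 681 336 = true := by decide +kernel
theorem cN_1017 : allRange (fun x => forceN T.chkName x) 1017 332 = true := by decide +kernel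
theorem cN_1349 : allRange (fun x => forceN T.chkName x) 1349 312 = true := by decide +kernel
theorem cN_1661 : allRange (fun x => forceN T.chkName x) 1661 314 = true := by decide +kernel
theorem cN_1975 : allRange (fun x => forceN T.chkName x) 1975 344 = true := by decide +kernel
theorem cN_2319 : allRange (fun x => forceN T.chkName x) 2319 362 = true := by decide +kernel
theorem cN_2681 : allRange (fun x => forceN T.chkName x) 2681 368 = true := by decide +kernel
theorem cN_3049 : allRange (fun x => forceN T.chkName x) 3049 372 = true := by decide +kernel
theorem cN_3421 : allRange (fun x => forceN T.chkName x) 3421 373 = true := by decide +kernel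
theorem cN_3794 : allRange (fun x => forceN T.chkName x) 3794 380 = true := by decide +kernel

end Cfsg.Agent.Lib.Helper56.He2058
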