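import Mathlib
import Cfsg.Agent.Lib.Helper56.TC
import Cfsg.Agent.Lib.Helper56.He2058.D
set_option autoImplicit false
set_option maxRecDepth 1000000

namespace Cfsg.Agent.Lib.Helper56.He2058

open Cfsg.Agent.Lib.Helper56.TC Cfsg.Agent.Lib.Helper56.TC.Tabs

theorem cN_4174 : allRange (fun x => forceN T.chkName x) 4174 381 = true := by decide +kernel
theorem cN_4555 : allRange (fun x => forceN T.chkName x) 4555 393 = true := by decide +kernel
theorem cN_4948 : allRange (fun x => forceN T.chkName x) 4948 396 = true := by decide +kernel
theorem cN_5344 : allRange (fun x => forceN T.chkName x) 5344 271 = true := by decide +kernel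
theorem cV_0 : allRange (fun x => forceN T.chkV x) 0 182 = true := by decide +kernel
theorem cV_182 : allRange (fun x => forceN T.chkV x) 182 182 = true := by decide +kernel
theorem cV_364 : allRange (fun x => forceN T.chkV x) 364 182 = true := by decide +kernel
theorem cV_546 : allRange (fun x => forceN T.chkV x) 546 182 = true := by decide +kernel
theorem cV_728 : allRange (fun x => forceN T.chkV x) 728 182 = true := by decide +kernel
theorem cV_910 : allRange (fun x => forceN T.chkV x) 910 182 = true := by decide +kernel
theorem cV_1092 : allRange (fun x => forceN T.chkV x) 1092 182 = true := by decide +kernel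
theorem cV_1274 : allRange (fun x => forceN T.chkV x) 1274 182 = true := by decide +kernel

end Cfsg.Agent.Lib.Helper56.He2058
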