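import Mathlib
import Cfsg.Agent.Lib.Helper56.TC
import Cfsg.Agent.Lib.Helper56.He2058.D
set_option autoImplicit false
set_option maxRecDepth 1000000

namespace Cfsg.Agent.Lib.Helper56.He2058

open Cfsg.Agent.Lib.Helper56.TC Cfsg.Agent.Lib.Helper56.TC.Tabs

theorem cV_1456 : allRange (fun x => forceN T.chkV x) 1456 182 = true := by decide +kernel
theorem cV_1638 : allRange (fun x => forceN T.chkV x) 1638 182 = true := by decide +kernel
theorem cV_1820 : allRange (fun x => forceN T.chkV x) 1820 182 = true := by decide +kernel
theorem cV_2002 : allRange (fun x => forceN T.chkV x) 2002 56 = true := by decide +kernel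

end Cfsg.Agent.Lib.Helper56.He2058
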