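import Mathlib
import Cfsg.Agent.Lib.Helper56.TC
import Cfsg.Agent.Lib.Helper56.He2058.C0
import Cfsg.Agent.Lib.Helper56.He2058.C1
import Cfsg.Agent.Lib.Helper56.He2058.C2
set_option autoImplicit false
set_option maxRecDepth 1000000

namespace Cfsg.Agent.Lib.Helper56.He2058

open Cfsg.Agent.Lib.Helper56.TC Cfsg.Agent.Lib.Helper56.TC.Tabs

theorem uN_339 : Upto T.chkName 339 := upto_add (upto_zero T.chkName) rfl cN_0
theorem uN_681 : Upto T.chkName 681 := upto_add uN_339 rfl cN_339
theorem uN_1017 : Upto T.chkName 1017 := upto_add uN_681 rfl cN_681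
theorem uN_1349 : Upto T.chkName 1349 := upto_add uN_1017 rfl cN_1017
theorem uN_1661 : Upto T.chkName 1661 := upto_add uN_1349 rfl cN_1349
theorem uN_1975 : Upto T.chkName 1975 := upto_add uN_1661 rfl cN_1661
theorem uN_2319 : Upto T.chkName 2319 := upto_add uN_1975 rfl cN_1975
theorem uN_2681 : Upto T.chkName 2681 := upto_add uN_2319 rfl cN_2319
theorem uN_3049 : Upto T.chkName 3049 := upto_add uN_2681 rfl cN_2681
theorem uN_3421 : Upto T.chkName 3421 := upto_add uN_3049 rfl cN_3049
theorem uN_3794 : Upto T.chkName 3794 := upto_add uN_3421 rfl cN_3421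
theorem uN_4174 : Upto T.chkName 4174 := upto_add uN_3794 rfl cN_3794
theorem uN_4555 : Upto T.chkName 4555 := upto_add uN_4174 rfl cN_4174
theorem uN_4948 : Upto T.chkName 4948 := upto_add uN_4555 rfl cN_4555
theorem uN_5344 : Upto T.chkName 5344 := upto_add uN_4948 rfl cN_4948
theorem uN_5615 : Upto T.chkName 5615 := upto_add uN_5344 rfl cN_5344
theorem uV_182 : Upto T.chkV 182 := upto_add (upto_zero T.chkV) rfl cV_0
theorem uV_364 : Upto T.chkV 364 := upto_add uV_182 rfl cV_182
theorem uV_546 : Upto T.chkV 546 := upto_add uV_364 rfl cV_364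
theorem uV_728 : Upto T.chkV 728 := upto_add uV_546 rfl cV_546
theorem uV_910 : Upto T.chkV 910 := upto_add uV_728 rfl cV_728
theorem uV_1092 : Upto T.chkV 1092 := upto_add uV_910 rfl cV_910
theorem uV_1274 : Upto T.chkV 1274 := upto_add uV_1092 rfl cV_1092
theorem uV_1456 : Upto T.chkV 1456 := upto_add uV_1274 rfl cV_1274
theorem uV_1638 : Upto T.chkV 1638 := upto_add uV_1456 rfl cV_1456
theorem uV_1820 : Upto T.chkV 1820 := upto_add uV_1638 rfl cV_1638
theorem uV_2002 : Upto T.chkV 2002 := upto_add uV_1820 rfl cV_1820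
theorem uV_2058 : Upto T.chkV 2058 := upto_add uV_2002 rfl cV_2002

/-- The certificate is valid. -/
theorem cert : T.Cert where
  h0 := by decide +kernel
  hrx := by decide +kernel
  hs0 := by decide +kernel
  hname := uN_5615
  hV := uV_2058

theorem orep_0 : T.orep 0 < T.N ∧ T.ol (T.orep 0) = 0 := by decide +kernel
theorem cnt_0 : countLt (fun v => Nat.beq (T.ol v) 0) T.N = 1 := by decide +kernel
theorem orep_1 : T.orep 1 < T.N ∧ T.ol (T.orep 1) = 1 := by decide +kernel
theorem cnt_1 : countLt (fun v => Nat.beq (T.ol v) 1) T.N = 1360 := by decide +kernel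
theorem orep_2 : T.orep 2 < T.N ∧ T.ol (T.orep 2) = 2 := by decide +kernel
theorem cnt_2 : countLt (fun v => Nat.beq (T.ol v) 2) T.N = 425 := by decide +kernel
theorem orep_3 : T.orep 3 < T.N ∧ T.ol (T.orep 3) = 3 := by decide +kernel
theorem cnt_3 : countLt (fun v => Nat.beq (T.ol v) 3) T.N = 136 := by decide +kernel
theorem orep_4 : T.orep 4 < T.N ∧ T.ol (T.orep 4) = 4 := by decide +kernel
theorem cnt_4 : countLt (fun v => Nat.beq (T.ol v) 4) T.N = 136 := by decide +kernel

end Cfsg.Agent.Lib.Helper56.He2058
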